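import Mathlib
import Cfsg.Agent.Lib.Helper99.CHO.Defs2

/-!
# CHO (S1082/S1083) package [NORM-B2]: diagonal isometries normalize `RB2`
-/

set_option autoImplicit false
open scoped MatrixGroups
open Matrix

namespace Cfsg.Agent.Lib.Helper24.CHO
open Cfsg.Agent.Lib.Helper99.CHO

universe u

/-- entry formula for the model root element of type B2. -/
theorem EB2mat_apply (K : Type u) [Field K] (r : ℕ) (t : K) (i j : Unit ⊕ (Fin 2 ⊕ Fin 2)) :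
    EB2mat K r t i j = (1 : Matrix _ _ K) i j + t * ((tab3 nListB2 r (ix5 i) (ix5 j) : ℤ) : K)
      + t ^ 2 * ((tab3 mListB2 r (ix5 i) (ix5 j) : ℤ) : K) := by
  simp [EB2mat, NB2, MB2]

/-- the character of the diagonal element `diag a` on the root `r`. -/
def chiB2 {K : Type u} [Field K] (a : Unit ⊕ (Fin 2 ⊕ Fin 2) → K) : ℕ → K
  | 0 => a (Sum.inr (Sum.inr 0)) * a (Sum.inr (Sum.inr 1))
  | 1 => a (Sum.inl ()) * a (Sum.inr (Sum.inr 0))
  | 2 => a (Sum.inl ()) * a (Sum.inr (Sum.inr 1))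
  | 3 => a (Sum.inr (Sum.inr 0)) * a (Sum.inr (Sum.inl 1))
  | 4 => a (Sum.inr (Sum.inl 0)) * a (Sum.inr (Sum.inr 1))
  | 5 => a (Sum.inl ()) * a (Sum.inr (Sum.inl 1))
  | 6 => a (Sum.inl ()) * a (Sum.inr (Sum.inl 0))
  | 7 => a (Sum.inr (Sum.inl 0)) * a (Sum.inr (Sum.inl 1))
  | _ => 1

/-- `diag(a) E_r(t) = E_r(χ_r t) diag(a)`, entrywise. -/
theorem diag_EB2_entry (K : Type u) [Field K] (a : Unit ⊕ (Fin 2 ⊕ Fin 2) → K)
    (h0 : a (Sum.inl ()) * a (Sum.inl ()) = 1)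
    (h1 : a (Sum.inr (Sum.inl 0)) * a (Sum.inr (Sum.inr 0)) = 1)
    (h2 : a (Sum.inr (Sum.inl 1)) * a (Sum.inr (Sum.inr 1)) = 1)
    (r : ℕ) (hr : r < 8) (t : K) (i j : Unit ⊕ (Fin 2 ⊕ Fin 2)) :
    a i * EB2mat K r t i j = EB2mat K r (chiB2 a r * t) i j * a j := by
  rw [EB2mat_apply, EB2mat_apply]
  interval_cases r <;> rcases i with ⟨⟩ | i | i <;> rcases j with ⟨⟩ | j | j <;>
    (try fin_cases i) <;> (try fin_cases j) <;>
    simp [tab3, nListB2, mListB2, ix5, chiB2] <;> grind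

/-- `diag(a) E_r(t) = E_r(χ_r t) diag(a)`. -/
theorem diag_EB2 (K : Type u) [Field K] (a : Unit ⊕ (Fin 2 ⊕ Fin 2) → K)
    (h0 : a (Sum.inl ()) * a (Sum.inl ()) = 1)
    (h1 : a (Sum.inr (Sum.inl 0)) * a (Sum.inr (Sum.inr 0)) = 1)
    (h2 : a (Sum.inr (Sum.inl 1)) * a (Sum.inr (Sum.inr 1)) = 1)
    (r : ℕ) (hr : r < 8) (t : K) :
    Matrix.diagonal a * EB2mat K r t = EB2mat K r (chiB2 a r * t) * Matrix.diagonal a := by
  ext i j
  rw [Matrix.diagonal_mul, Matrix.mul_diagonal]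
  exact diag_EB2_entry K a h0 h1 h2 r hr t i j

/-- the quadratic form of type B2 on a vector, written out. -/
theorem quadFormOdd_two (K : Type u) [Field K] (v : Unit ⊕ (Fin 2 ⊕ Fin 2) → K) :
    Cfsg.quadFormOdd 2 K v = v (Sum.inl ()) ^ 2 + (v (Sum.inr (Sum.inl 0)) * v (Sum.inr (Sum.inr 0))
      + v (Sum.inr (Sum.inl 1)) * v (Sum.inr (Sum.inr 1))) := by
  simp [Cfsg.quadFormOdd, Fin.sum_univ_two]

/-- A diagonal isometry of `x₀² + x₁y₁ + x₂y₂`: the relations between the diagonal entries. -/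
theorem diag_rel (K : Type u) [Field K] (d : GL (Unit ⊕ (Fin 2 ⊕ Fin 2)) K) (hd : d ∈ DgB2 K) :
    ∃ a : Unit ⊕ (Fin 2 ⊕ Fin 2) → K,
      (d : Matrix (Unit ⊕ (Fin 2 ⊕ Fin 2)) (Unit ⊕ (Fin 2 ⊕ Fin 2)) K) = Matrix.diagonal a ∧
      a (Sum.inl ()) * a (Sum.inl ()) = 1 ∧
      a (Sum.inr (Sum.inl 0)) * a (Sum.inr (Sum.inr 0)) = 1 ∧
      a (Sum.inr (Sum.inl 1)) * a (Sum.inr (Sum.inr 1)) = 1 := by
  obtain ⟨hiso, hdiag⟩ := hd
  obtain ⟨a, ha⟩ : ∃ a : Unit ⊕ (Fin 2 ⊕ Fin 2) → K, a = fun i =>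
      (d : Matrix (Unit ⊕ (Fin 2 ⊕ Fin 2)) (Unit ⊕ (Fin 2 ⊕ Fin 2)) K) i i := ⟨_, rfl⟩
  have hdval : (d : Matrix (Unit ⊕ (Fin 2 ⊕ Fin 2)) (Unit ⊕ (Fin 2 ⊕ Fin 2)) K) =
      Matrix.diagonal a := by
    ext i j
    by_cases h : i = j
    · subst h; simp [ha]
    · rw [Matrix.diagonal_apply_ne _ h]; exact hdiag i j h
  have hQ : ∀ v : Unit ⊕ (Fin 2 ⊕ Fin 2) → K,
      Cfsg.quadFormOdd 2 K (Matrix.diagonal a *ᵥ v) = Cfsg.quadFormOdd 2 K v := by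
    intro v
    have := hiso v v
    simpa [hdval] using this
  refine ⟨a, hdval, ?_, ?_, ?_⟩
  · have := hQ (Pi.single (Sum.inl ()) 1)
    rw [quadFormOdd_two, quadFormOdd_two] at this
    simp [Matrix.mulVec_diagonal] at this
    rcases this with h | h <;> rw [h] <;> ring
  · have := hQ (Pi.single (Sum.inr (Sum.inl 0)) 1 + Pi.single (Sum.inr (Sum.inr 0)) 1)
    rw [quadFormOdd_two, quadFormOdd_two] at this
    simpa [Matrix.mulVec_diagonal] using this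
  · have := hQ (Pi.single (Sum.inr (Sum.inl 1)) 1 + Pi.single (Sum.inr (Sum.inr 1)) 1)
    rw [quadFormOdd_two, quadFormOdd_two] at this
    simpa [Matrix.mulVec_diagonal] using this

/-- [NORM-B2] -/
theorem pkgNormB2_of (hU : PkgUnitB2.{u}) : PkgNormB2.{u} := by
  intro K _ d hd r t
  obtain ⟨a, hdval, h0, h1, h2⟩ := diag_rel K d hd
  have hr : r.val < 8 := r.isLt
  have e : ∀ s : K, (EB2 K r s : Matrix (Unit ⊕ (Fin 2 ⊕ Fin 2)) (Unit ⊕ (Fin 2 ⊕ Fin 2)) K) =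
      EB2mat K r.val s := by
    intro s
    unfold EB2
    rw [dif_pos (hU K r.val s hr)]
    rfl
  have key : d * EB2 K r t * d⁻¹ = EB2 K r (chiB2 a r.val * t) := by
    apply Units.ext
    rw [Units.val_mul, Units.val_mul, e, e, hdval, diag_EB2 K a h0 h1 h2 r.val hr t, ← hdval,
      Matrix.mul_assoc, Units.mul_inv, Matrix.mul_one]
  rw [key]
  exact Subgroup.subset_closure ⟨(r, chiB2 a r.val * t), rfl⟩

end Cfsg.Agent.Lib.Helper24.CHO
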